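import Cfsg.Agent.H158.OZ.Crit

/-!
# S4842, `PΩ⁺_8(q)`: conjugation by the reflection `e₃ ↔ f₃` (helper158)

`rhoE : E Q →* E Q`; `ell2_of` : `Ell {0,1,3} (π (rhoE z))` from the three facts of `z` which give `Ell {0,1,2} (π z)`;
`nc_rho` : the non-conjugacy of `z` and `z²` transfers.
-/

set_option autoImplicit false
set_option linter.unusedSectionVars false
set_option linter.unusedSimpArgs false

open Cfsg

namespace Cfsg.Agent.H158.OZ

open CoxeterSystem Cfsg.Agent.ChevalleyStructure.CoxeterGeom Cfsg.Agent.Tits.Roots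
open Cfsg.Agent.Nodes Cfsg.Agent.Nodes.Comb Cfsg.Agent.Nodes.Reps Cfsg.Agent.Nodes.WittRoot Cfsg.Agent.Nodes.BNOf
open Cfsg.Agent.Nodes.RGDLib Cfsg.Agent.Nodes.WittAll Cfsg.Agent.Nodes.WittU Cfsg.Agent.Nodes.WittInst
open Cfsg.Agent.Nodes.StabComb Cfsg.Agent.Nodes.Bruhat Cfsg.Agent.Nodes.LeviDec
open Cfsg.Agent.Nodes.TypeC (wt ng ng_ng wt_apply)
open Cfsg.Agent.Nodes.TypeD
open Cfsg.Agent.TitsThree Cfsg.Agent.TitsThree.Siegel Cfsg.Agent.TitsThree.WittFrame Cfsg.Agent.TitsThree.WittWeyl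
  Cfsg.Agent.TitsThree.WBridge Cfsg.Agent.TitsThree.KSideO
open Cfsg.Agent.LieClassical Cfsg.Agent.LieClassical.OrthCore Cfsg.Agent.LieClassical.OrthTrans
open Cfsg.Agent.LieClassical.OrthForms QuadraticMap Polynomial
open Cfsg.Agent.H769.OZ (StE le_StE mem_StE_of_finite mem_StE)
open Cfsg.Agent.H985.VZ (Free Ell)

/-- the swap of `(3, true)` and `(3, false)` -/
def rx (x : Fin 4 × Bool) : Fin 4 × Bool := if x.1 = 3 then (x.1, !x.2) else x

theorem rx_rx : ∀ x, rx (rx x) = x := by decide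

theorem ix_rx : ∀ x, ix (rx x) = Equiv.swap (Sum.inl 3 : Fin 4 ⊕ Fin 4) (Sum.inr 3) (ix x) := by decide

theorem rx_inj {x y : Fin 4 × Bool} (h : rx x = rx y) : x = y := by rw [← rx_rx x, h, rx_rx]

section rho

variable {F : Type*} [Field F]

variable (F) in
/-- the reflection -/
def rho : V8 F ≃ₗ[F] V8 F := LinearEquiv.funCongrLeft F F (Equiv.swap (Sum.inl 3 : Fin 4 ⊕ Fin 4) (Sum.inr 3))

theorem co_rho (x : Fin 4 × Bool) (v : V8 F) : co x (rho F v) = co (rx x) v := by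
  rw [co_apply, co_apply, ix_rx]
  rfl

theorem rho_rho (v : V8 F) : rho F (rho F v) = v := co_ext fun x => by rw [co_rho, co_rho, rx_rx]

theorem rho_mul_self : rho F * rho F = 1 := LinearEquiv.ext rho_rho

theorem rho_inv : (rho F)⁻¹ = rho F := inv_eq_of_mul_eq_one_left rho_mul_self

theorem rho_bb (x : Fin 4 × Bool) : rho F (bb x) = bb (rx x) := co_ext fun y => by
  rw [co_rho, co_bb, co_bb]
  by_cases h : y = rx x
  · rw [if_pos h, if_pos (by rw [h, rx_rx])]
  · rw [if_neg h, if_neg fun h' => h (by rw [← h', rx_rx])]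

theorem rho_mem_O : rho F ∈ O (Q8 F) := by
  intro v
  rw [Q8_apply, Q8_apply, Fin.sum_univ_four, Fin.sum_univ_four]
  simp only [co_rho]
  have h0 : rx (0, true) = (0, true) := by decide
  have h1 : rx (0, false) = (0, false) := by decide
  have h2 : rx (1, true) = (1, true) := by decide
  have h3 : rx (1, false) = (1, false) := by decide
  have h4 : rx (2, true) = (2, true) := by decide
  have h5 : rx (2, false) = (2, false) := by decide
  have h6 : rx (3, true) = (3, false) := by decide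
  have h7 : rx (3, false) = (3, true) := by decide
  rw [h0, h1, h2, h3, h4, h5, h6, h7]
  ring

theorem rho_mem_SZ {Z : Set (Fin 4 × Bool)} {v : V8 F} : rho F v ∈ SZ Z ↔ v ∈ SZ {x | rx x ∈ Z} := by
  constructor
  · intro h x hx
    have h1 := h (rx x) hx
    rwa [co_rho, rx_rx] at h1
  · intro h x hx
    rw [co_rho]
    exact h (rx x) fun h' => hx (by
      change rx (rx x) ∈ Z at h'
      rwa [rx_rx] at h')

variable (F) in
/-- the conjugation -/
def rhoE : E (Q8 F) →* E (Q8 F) where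
  toFun z := ⟨rho F * z.1 * (rho F)⁻¹, conj_mem_E rho_mem_O z.2⟩
  map_one' := Subtype.ext (by
    change rho F * 1 * (rho F)⁻¹ = 1
    group)
  map_mul' a b := Subtype.ext (by
    change rho F * (a.1 * b.1) * (rho F)⁻¹ = (rho F * a.1 * (rho F)⁻¹) * (rho F * b.1 * (rho F)⁻¹)
    group)

theorem rhoE_val (z : E (Q8 F)) : (rhoE F z).1 = rho F * z.1 * (rho F)⁻¹ := rfl

theorem rhoE_apply (z : E (Q8 F)) (v : V8 F) : (rhoE F z).1 v = rho F (z.1 (rho F v)) := by
  rw [rhoE_val, rho_inv]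
  rfl

theorem rhoE_rhoE (z : E (Q8 F)) : rhoE F (rhoE F z) = z := Subtype.ext (LinearEquiv.ext fun v => by
  rw [rhoE_apply, rhoE_apply, rho_rho, rho_rho])

theorem UF_rho {r r' : Fin 4 × Bool → ℕ} (hr : ∀ x, r' x = r (rx x)) {u : V8 F ≃ₗ[F] V8 F} (hu : u ∈ UF r') :
    rho F * u * (rho F)⁻¹ ∈ UF r := by
  intro k v hv
  rw [rho_inv]
  change rho F (u (rho F v)) - v ∈ _
  have h1 : rho F v ∈ (SZ {x | r' x < k + 1} : Submodule F (V8 F)) := by
    rw [rho_mem_SZ]
    intro x hx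
    refine hv x fun h => hx ?_
    change r' (rx x) < k + 1
    rw [hr, rx_rx]
    exact h
  have h2 := hu k _ h1
  have h3 : rho F (u (rho F v)) - v = rho F (u (rho F v) - rho F v) := by rw [map_sub, rho_rho]
  rw [h3, rho_mem_SZ]
  intro x hx
  refine h2 x fun h => hx ?_
  change r (rx x) < k
  rw [← hr]
  exact h

end rho

section crit

variable {F : Type*} [Field F] {S : Type*} [Group S] {π : E (Q8 F) →* S}
  (hk : ∀ z : E (Q8 F), z ∈ π.ker → ∃ a : F, ∀ v, (z : V8 F ≃ₗ[F] V8 F) v = a • v)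
  (hπ : Function.Surjective π)

include hk hπ

/-- the non-conjugacy transfers -/
theorem nc_rho {z z' : E (Q8 F)} (h : ∀ y : S, y * π z * y⁻¹ ≠ π z') (y : S) :
    y * π (rhoE F z) * y⁻¹ ≠ π (rhoE F z') := by
  intro e
  obtain ⟨w, rfl⟩ := hπ y
  have h1 : w * rhoE F z * w⁻¹ * (rhoE F z')⁻¹ ∈ π.ker := by
    rw [MonoidHom.mem_ker, map_mul, map_mul, map_mul, map_inv, map_inv, e, mul_inv_cancel]
  obtain ⟨a, ha⟩ := hk _ h1
  have h2 : rhoE F (w * rhoE F z * w⁻¹ * (rhoE F z')⁻¹) = w * rhoE F z * w⁻¹ * (rhoE F z')⁻¹ := by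
    refine Subtype.ext (LinearEquiv.ext fun v => ?_)
    rw [rhoE_apply]
    have h3 := ha (rho F v)
    have h4 := ha v
    change (w * rhoE F z * w⁻¹ * (rhoE F z')⁻¹ : E (Q8 F)).1 (rho F v) = _ at h3
    change (w * rhoE F z * w⁻¹ * (rhoE F z')⁻¹ : E (Q8 F)).1 v = _ at h4
    rw [h3, h4, map_smul, rho_rho]
  rw [← h2] at h1
  rw [map_mul, map_mul, map_mul, map_inv, map_inv, rhoE_rhoE, rhoE_rhoE, MonoidHom.mem_ker, map_mul, map_mul, map_mul,
    map_inv, map_inv, mul_inv_eq_one] at h1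
  exact h _ h1

/-- **ellipticity for `{0,1,3}`** from the facts about `z` for `{0,1,2}` -/
theorem ell2_of [Finite F] {W : Type*} [Group W] (cs : CoxeterSystem (TypeD.M 2) W) {p : ℕ} [Fact p.Prime] [CharP F p]
    {z : E (Q8 F)} (hz : ∀ x, (z : V8 F ≃ₗ[F] V8 F) (bb x) ∈ SZ {y | r1 y = r1 x})
    (hc : ∀ u : E (Q8 F), (u : V8 F ≃ₗ[F] V8 F) ∈ UF r1 → (z : V8 F ≃ₗ[F] V8 F) * u = u * z →
      (u : V8 F ≃ₗ[F] V8 F) = 1)
    (hirr : ∀ D' : Submodule F (V8 F), D' ≤ SZ (DI 3) → (∀ v ∈ D', (z : V8 F ≃ₗ[F] V8 F) v ∈ D') →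
      D' = ⊥ ∨ D' = SZ (DI 3)) : Ell cs (isCartan 2) (TSS π) (XS π) {0, 1, 3} (π (rhoE F z)) := by
  have hr : ∀ x, r2 x = r1 (rx x) := by decide
  have hr' : ∀ x, r1 x = r2 (rx x) := by decide
  have hd : ∀ x, DB 2 x = DB 3 (rx x) := by decide
  have hi2 : ∀ i : Fin 4, i ∉ ({0, 1, 3} : Set (Fin 4)) ↔ i = 2 := by
    intro i
    fin_cases i <;> simp
  refine ell_of (p := p) dt2 hk hπ (z := rhoE F z) (fun x => ?_) (fun i hi x hx y hxy => ?_) ⟨(0, true), by decide⟩
    (fun u hu huz => ?_) (ZJ := DI 2) (fun x => ?_) (fun i hi => ?_) (fun D' hD' hz' => ?_)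
  · rw [rhoE_apply, rho_bb, rho_mem_SZ]
    have h1 := hz (rx x)
    intro y hy
    refine h1 y fun h => hy ?_
    change r2 (rx y) = r2 x
    rw [hr, hr, rx_rx]
    exact h
  · rw [(hi2 i).1 hi] at hx ⊢
    have key : ∀ x y : Fin 4 × Bool, DB 2 x = true → r2 y = r2 x → DB 2 y = true := by decide
    exact key x y hx hxy
  · have h1 : (rhoE F u).1 ∈ UF r1 := UF_rho hr hu
    have h2 : (z : V8 F ≃ₗ[F] V8 F) * (rhoE F u).1 = (rhoE F u).1 * z := by
      have h3 : rhoE F z * u = u * rhoE F z := Subtype.ext huz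
      have h4 := congrArg (rhoE F) h3
      rw [map_mul, map_mul, rhoE_rhoE] at h4
      exact congrArg Subtype.val h4
    have h3 : rhoE F u = 1 := Subtype.ext (hc _ h1 h2)
    rw [← rhoE_rhoE u, h3, map_one]
    rfl
  · constructor
    · intro hx j hj
      rw [(hi2 j).1 hj]
      exact hx
    · intro h
      exact h 2 ((hi2 2).2 rfl)
  · have key : ∀ i : Fin 4, i ≠ 2 → (∃ x, DB 2 x = true ∧ DB i x = true) ∧ ∃ y, DB 2 y = true ∧ DB i y ≠ true := by decide
    exact key i fun h => ((hi2 i).2 h) hi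
  · have h1 := hirr (D'.map (rho F : V8 F →ₗ[F] V8 F)) (fun v hv => ?_) (fun v hv => ?_)
    · have h2 : D' = (D'.map (rho F : V8 F →ₗ[F] V8 F)).map (rho F : V8 F →ₗ[F] V8 F) := by
        ext v
        constructor
        · intro hv
          exact ⟨rho F v, ⟨v, hv, rfl⟩, rho_rho v⟩
        · rintro ⟨_, ⟨w, hw, rfl⟩, rfl⟩
          change rho F (rho F w) ∈ D'
          rw [rho_rho]
          exact hw
      rcases h1 with h1 | h1
      · left
        rw [h2, h1, Submodule.map_bot]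
      · right
        rw [h2, h1]
        ext v
        constructor
        · rintro ⟨w, hw, rfl⟩
          change rho F w ∈ SZ (DI 2)
          rw [rho_mem_SZ]
          intro x hx
          refine hw x fun h => hx ?_
          change DB 2 (rx x) = true
          rw [hd, rx_rx]
          exact h
        · intro hv
          refine ⟨rho F v, ?_, rho_rho v⟩
          change rho F v ∈ SZ (DI 3)
          rw [rho_mem_SZ]
          intro x hx
          refine hv x fun h => hx ?_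
          change DB 3 (rx x) = true
          rw [← hd]
          exact h
    · obtain ⟨w, hw, rfl⟩ := hv
      change rho F w ∈ SZ (DI 3)
      rw [rho_mem_SZ]
      intro x hx
      refine hD' hw x fun h => hx ?_
      change DB 3 (rx x) = true
      rw [← hd]
      exact h
    · obtain ⟨w, hw, rfl⟩ := hv
      refine ⟨(rhoE F z).1 w, hz' w hw, ?_⟩
      change rho F ((rhoE F z).1 w) = z.1 (rho F w)
      rw [rhoE_apply, rho_rho]

end crit

end Cfsg.Agent.H158.OZ
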